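import Cfsg.Agent.Lib.H34.He0.PData

set_option autoImplicit false
set_option maxRecDepth 100000

noncomputable section

namespace H34.He0

open H34.TC

theorem v0 : allR (pchk par bs 2058 7 bl rl hl pl) 12 (0 * 2 ^ 12) = true := by decide +kernel

end H34.He0
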