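import Cfsg.Agent.Lib.H34.He0.U0
import Cfsg.Agent.Lib.H34.He0.V0
import Cfsg.Prelude.Def_Spor_He

set_option autoImplicit false
set_option maxRecDepth 100000

noncomputable section

namespace H34.He0

open H34.TC Cfsg.Spor

def gens : List Cfsg.Spor.He.Gen := [.a, .b, .c, .d, .e, .f, .g]

theorem hg : ∀ x, x ∈ gens := by intro x; cases x <;> decide

theorem hn : ∀ x, x ∈ coxNodes Cfsg.Spor.He.edges := by intro x; cases x <;> decide

theorem hnd : gens.Nodup := by decide

theorem hbase : baseChk gens Cfsg.Spor.He.edges Cfsg.Spor.He.extra base = true := by decide +kernel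

theorem hrel : relChk gens Cfsg.Spor.He.edges Cfsg.Spor.He.extra base = true := by decide +kernel

theorem hslot : ∀ g, g < gens.length → Rng (fun i e => ∃ J, chkSlot (tabF tabs) E D (wAF id WA g) subs 4793 g i e J = true) (tabF tabs g) 0 4864 := by
  intro g hg
  change g < 7 at hg
  interval_cases g
  · exact r0
  · exact r1
  · exact r2
  · exact r3
  · exact r4
  · exact r5
  · exact r6

theorem hvo : VFact (tabF ptabs) 2058 gens.length rws ∧ OFact (tabF ptabs) bs hw (fun k => pwl.getD k []) 2058 7 := by
  apply pchk_sound (par := par) hbl hrl hhl hpl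
  apply all_of_pieces (d := 12) (c := 1) (by norm_num)
  intro k hk
  interval_cases k
  · exact v0

theorem upper (H : Subgroup (CoxPresented Cfsg.Spor.He.Gen Cfsg.Spor.He.edges Cfsg.Spor.He.extra))
    (hH : H = Subgroup.closure {x | ∃ w ∈ hw, x = wp (ell gens (gn Cfsg.Spor.He.edges Cfsg.Spor.He.extra)) w}) :
    H.FiniteIndex ∧ H.index ≤ 2058 :=
  cox_upper hg hn H hw hH base hbase 4793 4864 2058 tabs E D WA HA WE HE subs subE (by decide) (by norm_num) (by norm_num) rfl
    (by decide +kernel) (by decide +kernel) (by decide +kernel) (by decide +kernel) hslot rE (nbeq cN)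

def main (H : Subgroup (CoxPresented Cfsg.Spor.He.Gen Cfsg.Spor.He.edges Cfsg.Spor.He.extra))
    (hH : H = Subgroup.closure {x | ∃ w ∈ hw, x = wp (ell gens (gn Cfsg.Spor.He.edges Cfsg.Spor.He.extra)) w}) :=
  cox_exact hg hnd H hw hH base hrel 2058 (by norm_num) (upper H hH) (tabF ptabs) rws (by decide +kernel) (by decide +kernel) hvo.1
    (by decide +kernel) (by decide +kernel) bs pwl 7 (by decide +kernel) (by decide +kernel) hvo.2

end H34.He0
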